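import Cfsg.Agent.AutOrthFusion.Alt

/-! Operators commuting with a fixed-point-free isometry of odd order. -/

set_option autoImplicit false
set_option linter.unusedSectionVars false

namespace CfsgLib.AutOrthFusion

open Cfsg Cfsg.Geo CfsgLib.OrthGeo Module
open scoped Matrix MatrixGroups

variable {ι : Type} [Fintype ι] [DecidableEq ι] {F : Type*} [Field F] {Q : (ι → F) → F}
variable (hQ : IsNondegenerateQuadraticForm Q)

/-- `S` is adjoint to `T`. -/
def Adj (T S : Module.End F (ι → F)) : Prop := ∀ x y, bform hQ (T x) y = bform hQ x (S y)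

include hQ

lemma b_ext {x y : ι → F} (h : ∀ z, bform hQ z x = bform hQ z y) : x = y := by
  refine sub_eq_zero.1 ((b_nondeg hQ).2 _ fun z => ?_)
  rw [map_sub, h z, sub_self]

variable {hQ}

lemma Adj.one : Adj hQ 1 1 := fun _ _ => rfl

lemma Adj.symm {T S : Module.End F (ι → F)} (h : Adj hQ T S) : Adj hQ S T := fun x y => by
  rw [b_symm hQ, ← h, b_symm hQ]

lemma Adj.add {T S T' S' : Module.End F (ι → F)} (h : Adj hQ T S) (h' : Adj hQ T' S') : Adj hQ (T + T') (S + S') :=
  fun x y => by simp only [LinearMap.add_apply, map_add, h x y, h' x y]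

lemma Adj.sub {T S T' S' : Module.End F (ι → F)} (h : Adj hQ T S) (h' : Adj hQ T' S') : Adj hQ (T - T') (S - S') :=
  fun x y => by simp only [LinearMap.sub_apply, map_sub, h x y, h' x y]

lemma Adj.mul {T S T' S' : Module.End F (ι → F)} (h : Adj hQ T S) (h' : Adj hQ T' S') : Adj hQ (T * T') (S' * S) :=
  fun x y => by simp only [Module.End.mul_apply, h _ y, h' x _]

lemma Adj.smul {T S : Module.End F (ι → F)} (h : Adj hQ T S) (c : F) : Adj hQ (c • T) (c • S) :=
  fun x y => by simp only [LinearMap.smul_apply, map_smul, h x y]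

lemma Adj.zero : Adj hQ (0 : Module.End F (ι → F)) 0 := fun x y => by
  rw [LinearMap.zero_apply, LinearMap.zero_apply, map_zero, LinearMap.zero_apply, map_zero]

lemma Adj.unique {T S S' : Module.End F (ι → F)} (h : Adj hQ T S) (h' : Adj hQ T S') : S = S' :=
  LinearMap.ext fun y => b_ext hQ fun z => by rw [← h z y, ← h' z y]

lemma Adj.aeval {W W' : Module.End F (ι → F)} (h : Adj hQ W W') (P : Polynomial F) :
    Adj hQ (Polynomial.aeval W P) (Polynomial.aeval W' P) := by
  have hpow : ∀ n : ℕ, Adj hQ (W ^ n) (W' ^ n) := by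
    intro n
    induction n with
    | zero => exact Adj.one
    | succ n ih => rw [pow_succ, pow_succ']; exact ih.mul h
  induction P using Polynomial.induction_on' with
  | add P P' hP hP' => rw [map_add, map_add]; exact hP.add hP'
  | monomial n c =>
    rw [Polynomial.aeval_monomial, Polynomial.aeval_monomial, ← Algebra.smul_def, ← Algebra.smul_def]
    exact (hpow n).smul c

variable (hQ)

lemma exists_adj (T : Module.End F (ι → F)) : ∃ S, Adj hQ T S := by
  refine ⟨LinearMap.BilinForm.leftAdjointOfNondegenerate (bform hQ) (b_nondeg hQ) T, fun x y => ?_⟩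
  have h := LinearMap.BilinForm.isAdjointPairLeftAdjointOfNondegenerate (bform hQ) (b_nondeg hQ) T y x
  rw [b_symm hQ (T x), b_symm hQ x]
  exact h.symm

/-- The action of a matrix. -/
noncomputable abbrev act (w : GL ι F) : Module.End F (ι → F) := Matrix.toLin' (w : Matrix ι ι F)

omit hQ in
lemma act_mul (a b : GL ι F) : act (a * b) = act a * act b := by
  rw [act, Units.val_mul, Matrix.toLin'_mul]; rfl

omit hQ in
lemma act_one : act (1 : GL ι F) = 1 := by rw [act, Units.val_one, Matrix.toLin'_one]; rfl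

omit hQ in
lemma act_pow (a : GL ι F) (n : ℕ) : act (a ^ n) = act a ^ n := by
  induction n with
  | zero => rw [pow_zero, pow_zero, act_one]
  | succ n ih => rw [pow_succ, pow_succ, act_mul, ih]

lemma adj_act {w : GL ι F} (hw : w ∈ isometryGroup F Q) : Adj hQ (act w) (act w⁻¹) := fun x y => by
  have e : (w : Matrix ι ι F) *ᵥ (((w⁻¹ : GL ι F) : Matrix ι ι F) *ᵥ y) = y := mulVec_inv_cancel w y
  show bform hQ ((w : Matrix ι ι F) *ᵥ x) y = bform hQ x (((w⁻¹ : GL ι F) : Matrix ι ι F) *ᵥ y)
  conv_lhs => rw [← e]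
  exact isometry_b hQ hw _ _

variable (h2 : (2 : F) ≠ 0) {w : GL ι F} (hw : w ∈ isometryGroup F Q) {r : ℕ} (hr : Odd r) (hwr : w ^ r = 1)
  (hfix : ∀ x, (w : Matrix ι ι F) *ᵥ x = x → x = 0)
include h2 hw hr hwr hfix

/-- `w - w⁻¹` is injective. -/
lemma skew_injective : Function.Injective ⇑(act w - act w⁻¹) := by
  refine (injective_iff_map_eq_zero _).2 fun x hx => hfix x ?_
  rw [LinearMap.sub_apply, sub_eq_zero] at hx
  have hx' : (w : Matrix ι ι F) *ᵥ x = ((w⁻¹ : GL ι F) : Matrix ι ι F) *ᵥ x := hx
  have h2' : ((w * w : GL ι F) : Matrix ι ι F) *ᵥ x = x := by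
    rw [Units.val_mul, ← Matrix.mulVec_mulVec, hx', mulVec_inv_cancel]
  have h3 : ∀ j : ℕ, (((w * w) ^ j : GL ι F) : Matrix ι ι F) *ᵥ x = x := fun j => by
    induction j with
    | zero => simp
    | succ j ih => rw [pow_succ, Units.val_mul, ← Matrix.mulVec_mulVec, h2', ih]
  obtain ⟨j, hj⟩ := hr
  have h4 := congrArg (fun v => (w : Matrix ι ι F) *ᵥ v) (h3 j)
  rw [Matrix.mulVec_mulVec, ← Units.val_mul, ← sq, ← pow_mul, ← pow_succ', ← hj, hwr, Units.val_one,
    Matrix.one_mulVec] at h4
  exact h4.symm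

/-- The alternating form `b(x, (w - w⁻¹) y)`. -/
lemma exists_alt :
    ∃ β : LinearMap.BilinForm F (ι → F), (∀ x y, β x y = bform hQ x ((act w - act w⁻¹) y)) ∧ β.IsAlt ∧
      LinearMap.ker β = ⊥ := by
  refine ⟨(bform hQ).compl₂ (act w - act w⁻¹), fun x y => rfl, fun x => ?_, ?_⟩
  · show bform hQ x ((act w - act w⁻¹) x) = 0
    rw [LinearMap.sub_apply, map_sub, ← adj_act hQ hw x x, b_symm hQ ((act w) x), sub_self]
  · rw [LinearMap.ker_eq_bot']
    intro x hx
    refine b_ext hQ fun z => ?_
    obtain ⟨y, rfl⟩ := LinearMap.injective_iff_surjective.1 (skew_injective hQ h2 hw hr hwr hfix) z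
    rw [map_zero, b_symm hQ]
    exact LinearMap.congr_fun hx y

/-- A self-adjoint operator commuting with `w` has square determinant. -/
theorem isSquare_det_of_selfadjoint {X : Module.End F (ι → F)} (hX : Function.Injective X) (hadj : Adj hQ X X)
    (hc : Commute (act w) X) (hc' : Commute (act w⁻¹) X) : IsSquare (LinearMap.det X) := by
  obtain ⟨β, hβ, hA, hker⟩ := exists_alt hQ h2 hw hr hwr hfix
  refine isSquare_det_of_alt hA hker hX fun x => ?_
  rw [hβ]
  set D := act w - act w⁻¹ with hD
  have hDa : Adj hQ D (-D) := by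
    rw [hD, neg_sub]; exact (adj_act hQ hw).sub (adj_act hQ hw).symm
  have hDc : D * X = X * D := (hc.sub_left hc').eq
  have e : bform hQ (X x) (D x) = -bform hQ (X x) (D x) := by
    conv_lhs => rw [b_symm hQ, hDa, LinearMap.neg_apply, map_neg]
    rw [show D (X x) = X (D x) from LinearMap.congr_fun hDc x, ← hadj]
  exact (mul_eq_zero.1 (show (2 : F) * _ = 0 by linear_combination e)).resolve_left h2

/-- A similarity commuting with `w` is proper. -/
theorem det_of_commute {z : GL ι F} {c : F} (hc : c ≠ 0) (hz : ∀ v, Q ((z : Matrix ι ι F) *ᵥ v) = c * Q v)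
    (hcomm : z * w = w * z) {k : ℕ} (hk : Fintype.card ι = 2 * k) : (z : Matrix ι ι F).det = c ^ k := by
  obtain ⟨β, hβ, hA, hker⟩ := exists_alt hQ h2 hw hr hwr hfix
  have hci : z * w⁻¹ = w⁻¹ * z := (Commute.inv_right (hcomm : Commute z w)).eq
  rw [← LinearMap.det_toLin']
  refine det_of_alt_similitude hA hker hc (fun x y => ?_) (k := k) (by rw [finrank_fintype_fun_eq_card, hk])
  rw [hβ, hβ, ← AutOrth.similarity_b hQ hz x]
  congr 1
  simp only [LinearMap.sub_apply, Matrix.mulVec_sub, act, Matrix.toLin'_apply, Matrix.mulVec_mulVec, ← Units.val_mul,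
    hcomm, hci]

/-- The isometry `S⁻¹ T` of a commuting adjoint pair and the square class of its Wall determinant. -/
theorem exists_isometry_of_adj [Finite F] (hexc : ¬ (Nat.card F = 2 ∧ Fintype.card ι = 4))
    {T S : Module.End F (ι → F)} (hTS : Adj hQ T S) (hc : T * S = S * T)
    (hTw : Commute (act w) T) (hSw : Commute (act w) S) (hT : LinearMap.det T ≠ 0)
    (hD : Function.Injective (S - T)) :
    ∃ c : isometryGroup F Q, (c : GL ι F) * w = w * (c : GL ι F) ∧
      ((c : GL ι F) : Matrix ι ι F).det = 1 ∧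
      ((Classical.Orth.classHom hQ hexc c).2 = 1 ↔ IsSquare (LinearMap.det T)) := by
  classical
  set MT := LinearMap.toMatrix' T with hMT
  set MS := LinearMap.toMatrix' S with hMS
  set B := LinearMap.toMatrix₂' F (bform hQ) with hB
  have hadj : MTᵀ * B = B * MS := by
    have e : (bform hQ).compl₁₂ T LinearMap.id = (bform hQ).compl₁₂ LinearMap.id S :=
      LinearMap.ext fun x => LinearMap.ext fun y => hTS x y
    have h := congrArg (LinearMap.toMatrix₂' F) e
    simpa [LinearMap.toMatrix₂'_compl₁₂, LinearMap.toMatrix'_id, ← hMT, ← hMS, ← hB] using h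
  have hB0 : B.det ≠ 0 := AutOrthGraph.det_gramMat_ne_zero hQ
  have hdS : MS.det = MT.det := by
    have h := congrArg Matrix.det hadj
    rw [Matrix.det_mul, Matrix.det_mul, Matrix.det_transpose, mul_comm B.det] at h
    exact (mul_right_cancel₀ hB0 h).symm
  have hdT : MT.det = LinearMap.det T := LinearMap.det_toMatrix' T
  let gT : GL ι F := Matrix.GeneralLinearGroup.mkOfDetNeZero MT (by rw [hdT]; exact hT)
  let gS : GL ι F := Matrix.GeneralLinearGroup.mkOfDetNeZero MS (by rw [hdS, hdT]; exact hT)
  have hgT : ∀ x, (gT : Matrix ι ι F) *ᵥ x = T x := fun x => LinearMap.toMatrix'_mulVec T x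
  have hgS : ∀ x, (gS : Matrix ι ι F) *ᵥ x = S x := fun x => LinearMap.toMatrix'_mulVec S x
  have hST : ∀ x, T (S x) = S (T x) := fun x => LinearMap.congr_fun hc x
  set u : GL ι F := gS⁻¹ * gT with hu
  have hSu : ∀ x, S ((u : Matrix ι ι F) *ᵥ x) = T x := fun x => by
    rw [← hgS, ← hgT, hu, Units.val_mul, ← Matrix.mulVec_mulVec, mulVec_inv_cancel]
  have hSinj : Function.Injective S := fun x y h => by
    rw [← hgS, ← hgS] at h
    exact Matrix.mulVec_injective_iff_isUnit.2 gS.isUnit h
  have hSsurj : Function.Surjective S := LinearMap.injective_iff_surjective.1 hSinj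
  have hiso : u ∈ isometryGroup F Q := by
    rw [mem_isometryGroup]
    intro x
    obtain ⟨z, rfl⟩ := hSsurj x
    have e1 : (u : Matrix ι ι F) *ᵥ S z = T z := hSinj (by rw [hSu, hST])
    rw [e1]
    refine mul_left_cancel₀ h2 ?_
    rw [← b_self hQ, ← b_self hQ, hTS, ← hST, ← hTS.symm z]
  refine ⟨⟨u, hiso⟩, ?_, ?_, ?_⟩
  · refine gl_ext fun x => hSinj ?_
    simp only [Units.val_mul, ← Matrix.mulVec_mulVec]
    rw [hSu, show S ((w : Matrix ι ι F) *ᵥ ((u : Matrix ι ι F) *ᵥ x)) = (act w) (S ((u : Matrix ι ι F) *ᵥ x)) from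
      (LinearMap.congr_fun hSw.eq _).symm, hSu]
    exact (LinearMap.congr_fun hTw.eq x).symm
  · show (u : Matrix ι ι F).det = 1
    rw [hu, Units.val_mul, Matrix.det_mul]
    show ((gS⁻¹ : GL ι F) : Matrix ι ι F).det * MT.det = 1
    rw [← hdS, show MS = ((gS : GL ι F) : Matrix ι ι F) from rfl, ← Matrix.det_mul, Units.inv_mul, Matrix.det_one]
  · rw [Classical.Orth.classHom_snd]
    let e : Fin (Fintype.card ι) ≃ ι := (Fintype.equivFin ι).symm
    let bs : Module.Basis (Fin (Fintype.card ι)) F (ι → F) := (Pi.basisFun F ι).reindex e.symm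
    have hone : Function.Injective ((1 : Module.End F (ι → F)) - Matrix.toLin' (u : Matrix ι ι F)) := by
      refine (injective_iff_map_eq_zero _).2 fun x hx => ?_
      have hx' := congrArg S hx
      rw [LinearMap.sub_apply, Module.End.one_apply, Matrix.toLin'_apply, map_sub, hSu, map_zero] at hx'
      exact hD (by rw [LinearMap.sub_apply, hx', map_zero])
    have hres : Classical.Orth.residual u = ⊤ := by
      rw [eq_top_iff]
      intro x _
      obtain ⟨y, rfl⟩ := LinearMap.injective_iff_surjective.1 hone x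
      exact Classical.Orth.sub_mem_residual u y
    have hfun : (fun i => bs i - (u : Matrix ι ι F) *ᵥ bs i) =
        ⇑((1 : Module.End F (ι → F)) - Matrix.toLin' (u : Matrix ι ι F)) ∘ bs := rfl
    have hW : Classical.Orth.IsWallDet hQ u (((1 : Matrix ι ι F) - (u : Matrix ι ι F)).det * B.det) := by
      refine ⟨_, bs, ?_, ?_, ?_⟩
      · rw [hfun]; exact bs.linearIndependent.map' _ (LinearMap.ker_eq_bot.2 hone)
      · rw [hfun, Set.range_comp, ← Submodule.map_span, bs.span_eq, Submodule.map_top, hres]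
        exact LinearMap.range_eq_top.2 (LinearMap.injective_iff_surjective.1 hone)
      · have hm : (Matrix.of fun i j => bform hQ (bs i - (u : Matrix ι ι F) *ᵥ bs i) (bs j)) =
            (((1 : Matrix ι ι F) - (u : Matrix ι ι F))ᵀ * B).submatrix e e := by
          ext i j
          have hbs : ∀ i, bs i = Pi.single (e i) 1 := fun i => by simp [bs, Module.Basis.reindex_apply]
          rw [Matrix.of_apply, hbs, hbs, Matrix.submatrix_apply, Matrix.mulVec_single_one, Matrix.mul_apply]
          rw [show (Pi.single (e i) (1 : F) : ι → F) - (u : Matrix ι ι F).col (e i) =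
            ∑ l, ((1 : Matrix ι ι F) - (u : Matrix ι ι F)) l (e i) • (Pi.single l (1 : F) : ι → F) from ?_]
          · simp only [map_sum, map_smul, LinearMap.sum_apply, LinearMap.smul_apply, smul_eq_mul, Matrix.transpose_apply,
              hB, LinearMap.toMatrix₂'_apply]
          · funext l
            simp [Finset.sum_apply, Pi.single_apply, Matrix.one_apply, Matrix.col]
        rw [hm, Matrix.det_submatrix_equiv_self, Matrix.det_mul, Matrix.det_transpose]
    rw [(Classical.Orth.isWallDet_unique hQ hiso hW (Classical.Orth.isWallDet_spinor hQ u)).isSquare_iff]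
    have hskew : IsSquare ((MS - MT).det * B.det) := by
      let β : LinearMap.BilinForm F (ι → F) := (bform hQ).comp (S - T) LinearMap.id
      have hA : β.IsAlt := fun x => by
        show bform hQ ((S - T) x) x = 0
        rw [LinearMap.sub_apply, map_sub, LinearMap.sub_apply, hTS, b_symm hQ x, sub_self]
      have hker : LinearMap.ker β = ⊥ := by
        rw [LinearMap.ker_eq_bot']
        intro x hx
        refine hD ((b_ext hQ fun z => ?_).trans (map_zero _).symm)
        rw [map_zero, b_symm hQ]
        exact LinearMap.congr_fun hx z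
      obtain ⟨s, -, hs⟩ := exists_det_eq_sq hA hker (Pi.basisFun F ι)
      refine ⟨s, ?_⟩
      rw [← sq, ← hs]
      have : LinearMap.BilinForm.toMatrix (Pi.basisFun F ι) β = (MS - MT)ᵀ * B := by
        ext i j
        rw [LinearMap.BilinForm.toMatrix_apply, Matrix.mul_apply]
        show bform hQ ((S - T) ((Pi.basisFun F ι) i)) ((Pi.basisFun F ι) j) = _
        rw [Pi.basisFun_apply, Pi.basisFun_apply, show (S - T) (Pi.single i 1) =
          ∑ l, (MS - MT) l i • (Pi.single l (1 : F) : ι → F) from ?_]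
        · simp only [map_sum, map_smul, LinearMap.sum_apply, LinearMap.smul_apply, smul_eq_mul, Matrix.transpose_apply,
            hB, LinearMap.toMatrix₂'_apply]
        · funext l
          rw [LinearMap.sub_apply, ← hgS, ← hgT]
          simp [Finset.sum_apply, Pi.single_apply, Matrix.col, gS, gT]
      rw [this, Matrix.det_mul, Matrix.det_transpose]
    have hfac : (MS - MT).det = MS.det * ((1 : Matrix ι ι F) - (u : Matrix ι ι F)).det := by
      rw [← Matrix.det_mul, Matrix.mul_sub, Matrix.mul_one, show MS = ((gS : GL ι F) : Matrix ι ι F) from rfl,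
        ← Units.val_mul, hu, mul_inv_cancel_left]
      rfl
    rw [hfac, hdS, hdT, mul_assoc] at hskew
    have hne : ((1 : Matrix ι ι F) - (u : Matrix ι ι F)).det * B.det ≠ 0 :=
      Classical.Orth.isWallDet_ne_zero hQ hiso hW
    have := (Classical.Orth.isSquare_mul_iff hT hne).1 hskew
    exact this.symm

end CfsgLib.AutOrthFusion
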