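import Cfsg.Agent.LinAlg.Witt.Bases
import Cfsg.Agent.AutOrthGraph.Algebra

/-! Determinants attached to alternating forms. -/

set_option autoImplicit false
set_option linter.unusedSectionVars false

namespace CfsgLib.AutOrthFusion

open Module
open scoped Matrix

variable {F : Type*} [Field F] {V : Type*} [AddCommGroup V] [Module F V] [FiniteDimensional F V]
variable {β : LinearMap.BilinForm F V} (hA : β.IsAlt) (hker : LinearMap.ker β = ⊥)
include hA hker

lemma exists_std_basis : ∃ (m : ℕ) (b : Basis (Fin m ⊕ Fin m) F V),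
    finrank F V = 2 * m ∧ LinearMap.BilinForm.toMatrix b β = (Matrix.J (Fin m) F)ᵀ := by
  obtain ⟨m, b, hm, h1, h2, h3⟩ := CfsgLib.LinAlg.Witt.exists_symplectic_basis β hA hker
  refine ⟨m, b, hm, ?_⟩
  ext i j
  rw [LinearMap.BilinForm.toMatrix_apply]
  rcases i with i | i <;> rcases j with j | j
  · simp [h2, Matrix.J]
  · simp [h1, Matrix.J, Matrix.one_apply, eq_comm]
  · rw [← LinearMap.IsAlt.neg hA, h1]
    simp [Matrix.J, Matrix.one_apply, eq_comm]
  · simp [h3, Matrix.J]

omit hA hker in
lemma det_J_transpose (m : ℕ) : ((Matrix.J (Fin m) F)ᵀ).det = 1 := by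
  rw [Matrix.det_transpose, Matrix.J]
  have e : Matrix.fromBlocks (0 : Matrix (Fin m) (Fin m) F) (-1) 1 (0 : Matrix (Fin m) (Fin m) F) * Matrix.fromBlocks (1 : Matrix (Fin m) (Fin m) F) 0 (-1) (1 : Matrix (Fin m) (Fin m) F) =
      Matrix.fromBlocks 1 (-1) 1 (0 : Matrix (Fin m) (Fin m) F) := by simp [Matrix.fromBlocks_multiply]
  have h := congrArg Matrix.det e
  rw [Matrix.det_mul, Matrix.det_fromBlocks_zero₁₂, Matrix.det_fromBlocks_one₁₁, Matrix.det_one, one_mul, mul_one] at h
  rw [h]
  simp

/-- The Gram determinant of an alternating form is a square. -/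
theorem exists_det_eq_sq {κ : Type*} [Fintype κ] [DecidableEq κ] (c : Basis κ F V) :
    ∃ r : F, r ≠ 0 ∧ (LinearMap.BilinForm.toMatrix c β).det = r ^ 2 := by
  classical
  obtain ⟨m, b, hm, hb⟩ := exists_std_basis hA hker
  let e : κ ≃ Fin m ⊕ Fin m := Fintype.equivOfCardEq (by
    rw [← Module.finrank_eq_card_basis c, ← Module.finrank_eq_card_basis b])
  let c' := c.reindex e
  letI := b.invertibleToMatrix c'
  refine ⟨(b.toMatrix c').det, ((Matrix.isUnit_iff_isUnit_det _).1 (isUnit_of_invertible _)).ne_zero, ?_⟩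
  have h : LinearMap.BilinForm.toMatrix c' β = (LinearMap.BilinForm.toMatrix c β).submatrix e.symm e.symm := by
    ext i j
    simp [c', LinearMap.BilinForm.toMatrix_apply]
  rw [← Matrix.det_submatrix_equiv_self e.symm, ← h, ← LinearMap.BilinForm.toMatrix_mul_basis_toMatrix b c' β,
    Matrix.det_mul, Matrix.det_mul, Matrix.det_transpose, hb, det_J_transpose]
  ring

/-- A similitude of an alternating form has determinant the half-dimension power of its multiplier. -/
theorem det_of_alt_similitude {f : V →ₗ[F] V} {c : F} (hc : c ≠ 0) (hf : ∀ x y, β (f x) (f y) = c * β x y)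
    {k : ℕ} (hk : finrank F V = 2 * k) : LinearMap.det f = c ^ k := by
  classical
  obtain ⟨m, b, hm, hb⟩ := exists_std_basis hA hker
  obtain rfl : m = k := by omega
  set M := LinearMap.toMatrix b b f with hM
  set J := Matrix.J (Fin m) F with hJ
  have h : Mᵀ * J * M = c • J := by
    have e : β.comp f f = c • β := LinearMap.ext fun x => LinearMap.ext fun y => by simp [hf]
    have h' := congrArg (LinearMap.BilinForm.toMatrix b) e
    rw [LinearMap.BilinForm.toMatrix_comp b b, hb, map_smul, hb, ← hM] at h'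
    simpa [Matrix.J_transpose, hJ] using h'
  set D : Matrix (Fin m ⊕ Fin m) (Fin m ⊕ Fin m) F := Matrix.fromBlocks 1 0 0 (c⁻¹ • 1) with hD
  have hDJ : Dᵀ * J * D = c⁻¹ • J := by
    simp [hD, hJ, Matrix.J, Matrix.fromBlocks_transpose, Matrix.fromBlocks_multiply, Matrix.fromBlocks_smul]
  have hmem : M * D ∈ Matrix.symplecticGroup (Fin m) F := by
    rw [SymplecticGroup.mem_iff', Matrix.transpose_mul, ← hJ,
      show Dᵀ * Mᵀ * J * (M * D) = Dᵀ * (Mᵀ * J * M) * D by simp only [mul_assoc], h, Matrix.mul_smul,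
      Matrix.smul_mul, hDJ, smul_smul, mul_inv_cancel₀ hc, one_smul]
  have h1 := SymplecticGroup.det_eq_one hmem
  rw [Matrix.det_mul, hD, Matrix.det_fromBlocks_zero₂₁, Matrix.det_one, one_mul, Matrix.det_smul, Matrix.det_one,
    mul_one, Fintype.card_fin, hM, LinearMap.det_toMatrix, inv_pow] at h1
  exact (mul_inv_eq_one₀ (pow_ne_zero _ hc)).1 h1

/-- An invertible map carrying an alternating form to an alternating form has square determinant. -/
theorem isSquare_det_of_alt {X : V →ₗ[F] V} (hX : Function.Injective X) (h : ∀ x, β (X x) x = 0) :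
    IsSquare (LinearMap.det X) := by
  classical
  let b := Module.finBasis F V
  have hA' : (β.compLeft X).IsAlt := fun x => by simpa using h x
  have hker' : LinearMap.ker (β.compLeft X) = ⊥ := by
    rw [LinearMap.ker_eq_bot'] at hker ⊢
    intro x hx
    exact hX ((hker (X x) (LinearMap.ext fun y => by simpa using LinearMap.congr_fun hx y)).trans (map_zero X).symm)
  obtain ⟨r, hr, e⟩ := exists_det_eq_sq hA hker b
  obtain ⟨s, hs, e'⟩ := exists_det_eq_sq hA' hker' b
  rw [LinearMap.BilinForm.toMatrix_compLeft, Matrix.det_mul, Matrix.det_transpose, LinearMap.det_toMatrix, e] at e'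
  exact ⟨s / r, by field_simp; linear_combination e'⟩

end CfsgLib.AutOrthFusion
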