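import Cfsg.Agent.AutOrthFusion.Adjoint
import Mathlib.FieldTheory.Finite.GaloisField

/-! A proper isometry of non-square spinor norm commuting with a fixed-point-free isometry of odd order. -/

set_option autoImplicit false
set_option linter.unusedSectionVars false

namespace CfsgLib.AutOrthFusion

open Cfsg Cfsg.Geo CfsgLib.OrthGeo Module
open scoped Matrix MatrixGroups Polynomial

universe u

lemma commute_aeval {R A : Type*} [CommSemiring R] [Semiring A] [Algebra R A] {a m : A} (h : Commute a m) (P : R[X]) :
    Commute (Polynomial.aeval a P) m := by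
  induction P using Polynomial.induction_on' with
  | add p q hp hq => rw [map_add]; exact hp.add_left hq
  | monomial n c => rw [Polynomial.aeval_monomial]; exact (Algebra.commute_algebraMap_left c m).mul_left (h.pow_left n)

/-- A polynomial in an irreducible operator has any prescribed determinant. -/
theorem exists_aeval_det {F : Type u} [Field F] [Finite F] {U : Type u} [AddCommGroup U] [Module F U]
    [FiniteDimensional F U] [Nontrivial U] (A : Module.End F U)
    (hirr : ∀ X : Submodule F U, (∀ x ∈ X, A x ∈ X) → X = ⊥ ∨ X = ⊤) (ε : F) :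
    ∃ P : F[X], LinearMap.det (Polynomial.aeval A P) = ε := by
  classical
  set P := minpoly F A with hP
  have hint : IsIntegral F A := Algebra.IsIntegral.isIntegral A
  have hker : ∀ Q : F[X], Polynomial.aeval A Q = 0 ∨ Function.Injective (Polynomial.aeval A Q) := by
    intro Q
    rcases hirr (LinearMap.ker (Polynomial.aeval A Q)) (fun x hx => by
        rw [LinearMap.mem_ker] at hx ⊢
        rw [← Module.End.mul_apply, (commute_aeval (Commute.refl A) Q).eq, Module.End.mul_apply, hx, map_zero]) with h | h
    · exact Or.inr (LinearMap.ker_eq_bot.1 h)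
    · exact Or.inl (LinearMap.ker_eq_top.1 h)
  have hPirr : Irreducible P := by
    refine ⟨minpoly.not_isUnit F A, fun f g hfg => ?_⟩
    have h0 : Polynomial.aeval A f * Polynomial.aeval A g = 0 := by rw [← map_mul, ← hfg, hP, minpoly.aeval]
    have hne : f ≠ 0 ∧ g ≠ 0 := mul_ne_zero_iff.1 (hfg ▸ minpoly.ne_zero hint)
    rcases hker f with hf | hf
    · obtain ⟨t, ht⟩ := minpoly.dvd F A hf
      rw [← hP] at ht
      refine Or.inr (IsUnit.of_mul_eq_one t ?_)
      have : P * 1 = P * (g * t) := by
        calc P * 1 = f * g := by rw [mul_one, hfg]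
          _ = P * t * g := by rw [ht]
          _ = P * (g * t) := by ring
      exact (mul_left_cancel₀ (minpoly.ne_zero hint) this).symm
    · have hg : Polynomial.aeval A g = 0 := LinearMap.ext fun x => hf (by
        rw [LinearMap.zero_apply, map_zero, ← Module.End.mul_apply, h0, LinearMap.zero_apply])
      obtain ⟨t, ht⟩ := minpoly.dvd F A hg
      rw [← hP] at ht
      refine Or.inl (IsUnit.of_mul_eq_one t ?_)
      have : P * 1 = P * (f * t) := by
        calc P * 1 = f * g := by rw [mul_one, hfg]
          _ = f * (P * t) := by rw [ht]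
          _ = P * (f * t) := by ring
      exact (mul_left_cancel₀ (minpoly.ne_zero hint) this).symm
  haveI := Fact.mk hPirr
  let φ : AdjoinRoot P →ₐ[F] Module.End F U := Ideal.Quotient.liftₐ _ (Polynomial.aeval A) fun a ha => by
    obtain ⟨t, rfl⟩ := Ideal.mem_span_singleton.1 ha
    rw [map_mul, hP, minpoly.aeval, zero_mul]
  have hφ : ∀ Q : F[X], φ (AdjoinRoot.mk P Q) = Polynomial.aeval A Q := fun Q => rfl
  haveI : Module.Finite F (AdjoinRoot P) := (minpoly.monic hint).finite_adjoinRoot
  haveI : Finite (AdjoinRoot P) := Module.finite_of_finite F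
  obtain ⟨u₀, hu₀⟩ := exists_ne (0 : U)
  let J : AdjoinRoot P →ₗ[F] U :=
    { toFun := fun a => φ a u₀
      map_add' := fun a b => by rw [map_add, LinearMap.add_apply]
      map_smul' := fun c a => by rw [map_smul, LinearMap.smul_apply, RingHom.id_apply] }
  have hJ : ∀ a, J a = φ a u₀ := fun a => rfl
  have hinj : Function.Injective J := by
    refine (injective_iff_map_eq_zero J).2 fun a ha => ?_
    by_contra hne
    refine hu₀ ?_
    rw [← Module.End.one_apply (R := F) u₀, ← map_one φ, ← inv_mul_cancel₀ hne, map_mul, Module.End.mul_apply,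
      ← hJ, ha, map_zero]
  have hsurj : Function.Surjective J := by
    rw [← LinearMap.range_eq_top]
    refine (hirr _ ?_).resolve_left fun h => hu₀ ?_
    · rintro _ ⟨a, rfl⟩
      refine ⟨AdjoinRoot.mk P Polynomial.X * a, ?_⟩
      rw [hJ, map_mul, hφ, Polynomial.aeval_X, Module.End.mul_apply, ← hJ]
    · have h1 : J 1 ∈ LinearMap.range J := ⟨1, rfl⟩
      rwa [h, Submodule.mem_bot, hJ, map_one, Module.End.one_apply] at h1
  let e : AdjoinRoot P ≃ₗ[F] U := LinearEquiv.ofBijective J ⟨hinj, hsurj⟩
  obtain ⟨a, ha⟩ := FiniteField.norm_surjective F (AdjoinRoot P) ε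
  obtain ⟨Q, rfl⟩ := AdjoinRoot.mk_surjective a
  refine ⟨Q, ?_⟩
  rw [← ha, Algebra.norm_apply, ← LinearMap.det_conj (Algebra.lmul F (AdjoinRoot P) (AdjoinRoot.mk P Q)) e]
  congr 1
  refine LinearMap.ext fun x => ?_
  obtain ⟨b, rfl⟩ := e.surjective x
  rw [LinearMap.comp_apply, LinearMap.comp_apply, LinearEquiv.coe_coe, LinearEquiv.coe_coe, e.symm_apply_apply]
  show Polynomial.aeval A Q (J b) = J (AdjoinRoot.mk P Q * b)
  rw [hJ, hJ, map_mul, hφ, Module.End.mul_apply]

variable {ι : Type} [Fintype ι] [DecidableEq ι] {F : Type u} [Field F] [Finite F] {Q : (ι → F) → F}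
variable (hQ : IsNondegenerateQuadraticForm Q) (h2 : (2 : F) ≠ 0) {w : GL ι F} (hw : w ∈ isometryGroup F Q)
  {r : ℕ} (hr : Odd r) (hrF : (r : F) ≠ 0) (hwr : w ^ r = 1)
  (hfix : ∀ x, (w : Matrix ι ι F) *ᵥ x = x → x = 0)
include hQ h2 hw hr hrF hwr hfix

lemma det_sq_of_pow_odd {T : Module.End F (ι → F)} (hT : T ^ r = 1) : IsSquare (LinearMap.det T) := by
  obtain ⟨j, hj⟩ := hr
  refine ⟨LinearMap.det T ^ (j + 1), ?_⟩
  have h : LinearMap.det T ^ r = 1 := by rw [← map_pow, hT, map_one]
  rw [← pow_add, show j + 1 + (j + 1) = r + 1 by omega, pow_succ, h, one_mul]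

/-- Commuting data from an invariant subspace: an idempotent and a pair of adjoint maps. -/
theorem exists_spinor_element [Nonempty ι] (hexc : ¬ (Nat.card F = 2 ∧ Fintype.card ι = 4)) :
    ∃ c : isometryGroup F Q, (c : GL ι F) * w = w * (c : GL ι F) ∧
      ((c : GL ι F) : Matrix ι ι F).det = 1 ∧ (Classical.Orth.classHom hQ hexc c).2 ≠ 1 := by
  classical
  set W := act w with hW
  set W' := act w⁻¹ with hW'
  have hWW' : W * W' = 1 := by rw [hW, hW', ← act_mul, mul_inv_cancel, act_one]
  have hW'W : W' * W = 1 := by rw [hW, hW', ← act_mul, inv_mul_cancel, act_one]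
  have hadjW : Adj hQ W W' := adj_act hQ hw
  have hWr : W ^ r = 1 := by rw [hW, ← act_pow, hwr, act_one]
  -- a minimal invariant subspace
  obtain ⟨U, hUinv, hU0, hUmin⟩ : ∃ U : Submodule F (ι → F), (∀ x ∈ U, W x ∈ U) ∧ U ≠ ⊥ ∧
      ∀ X : Submodule F (ι → F), (∀ x ∈ X, W x ∈ X) → X ≤ U → X = ⊥ ∨ X = U := by
    have hex : ∃ d, ∃ X : Submodule F (ι → F), (∀ x ∈ X, W x ∈ X) ∧ X ≠ ⊥ ∧ finrank F X = d :=
      ⟨_, ⊤, fun x _ => trivial, top_ne_bot, rfl⟩
    obtain ⟨U, h1, h3, h4⟩ := Nat.find_spec hex
    refine ⟨U, h1, h3, fun X hX hle => or_iff_not_imp_left.2 fun hX0 => ?_⟩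
    exact Submodule.eq_of_le_of_finrank_le hle (h4 ▸ Nat.find_min' hex ⟨X, hX, hX0, rfl⟩)
  haveI : Nontrivial U := Submodule.nontrivial_iff_ne_bot.2 hU0
  obtain ⟨ε, hε⟩ := Classical.Orth.exists_not_isSquare (F := F) h2
  obtain ⟨P, hPdet⟩ := exists_aeval_det (W.restrict hUinv) (fun X hX => by
    rcases hUmin (X.map U.subtype) (by
        rintro _ ⟨x, hx, rfl⟩
        exact ⟨W.restrict hUinv x, hX x hx, rfl⟩)
      (by rintro _ ⟨x, -, rfl⟩; exact x.2) with h | h
    · exact Or.inl (Submodule.map_injective_of_injective U.injective_subtype (h.trans (Submodule.map_bot _).symm))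
    · exact Or.inr (Submodule.map_injective_of_injective U.injective_subtype
        (h.trans (Submodule.map_subtype_top U).symm))) ε
  set b := Polynomial.aeval W P with hb
  set b' := Polynomial.aeval W' P with hb'
  have hadjb : Adj hQ b b' := hadjW.aeval P
  have hbW : Commute W b := (commute_aeval (Commute.refl W) P).symm
  have hrestr : ∀ (R : F[X]) (x : U), ((Polynomial.aeval (W.restrict hUinv) R) x : ι → F) = Polynomial.aeval W R x := by
    intro R
    induction R using Polynomial.induction_on with
    | C c => intro x; simp [Module.algebraMap_end_apply]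
    | add R R' h h' => intro x; simp [map_add, h, h']
    | monomial n c _ =>
      intro x
      simp only [map_mul, Polynomial.aeval_C, map_pow, Polynomial.aeval_X, Module.End.mul_apply,
        Module.algebraMap_end_apply, Submodule.coe_smul]
      congr 1
      induction (n + 1) with
      | zero => simp
      | succ j ihj => rw [pow_succ', pow_succ', Module.End.mul_apply, Module.End.mul_apply, ← ihj]; rfl
  have hbU : ∀ x ∈ U, b x ∈ U := fun x hx => by
    rw [hb, ← hrestr P ⟨x, hx⟩]; exact Subtype.coe_prop _
  have hbinj : ∀ x ∈ U, b x = 0 → x = 0 := by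
    intro x hx h0
    by_contra hne
    refine hε ?_
    have hz : LinearMap.det (Polynomial.aeval (W.restrict hUinv) P) = 0 := by
      refine LinearMap.det_eq_zero_iff_ker_ne_bot.2 fun hk => hne ?_
      have := LinearMap.ker_eq_bot'.1 hk ⟨x, hx⟩ (Subtype.ext (by rw [hrestr]; exact h0))
      exact congrArg Subtype.val this
    rw [← hPdet, hz]; exact IsSquare.zero
  -- determinant of `b e + (1 - e)`
  have hdetE : ∀ e : Module.End F (ι → F), (∀ x, e x ∈ U) → (∀ x ∈ U, e x = x) →
      LinearMap.det (b * e + (1 - e)) = ε := by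
    intro e he1 he2
    set X := b * e + (1 - e) with hX
    have hXU : ∀ x ∈ U, X x = b x := fun x hx => by simp [hX, he2 x hx]
    have hXle : U ≤ U.comap X := fun x hx => by rw [Submodule.mem_comap, hXU x hx]; exact hbU x hx
    rw [LinearMap.det_eq_det_mul_det U X hXle]
    have h1 : X.restrict hXle = Polynomial.aeval (W.restrict hUinv) P :=
      LinearMap.ext fun x => Subtype.ext (by rw [hrestr]; exact hXU x x.2)
    have h3 : Submodule.mapQ U U X hXle = 1 := by
      refine Submodule.linearMap_qext _ (LinearMap.ext fun x => ?_)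
      show Submodule.Quotient.mk (X x) = Submodule.Quotient.mk x
      rw [Submodule.Quotient.eq]
      have : X x - x = b (e x) - e x := by simp [hX]; abel
      rw [this]
      exact U.sub_mem (hbU _ (he1 x)) (he1 x)
    rw [h1, h3, hPdet, map_one, mul_one]
  -- the idempotent
  set R := U ⊓ perp hQ U with hR
  have hWinj : Function.Injective W := fun x y h => by
    have := congrArg W' h
    rwa [← Module.End.mul_apply, ← Module.End.mul_apply, hW'W] at this
  have hUinv' : ∀ x ∈ U, W' x ∈ U := by
    intro x hx
    have hmap : U.map W = U := Submodule.eq_of_le_of_finrank_eq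
      (by rintro _ ⟨z, hz, rfl⟩; exact hUinv z hz) (LinearEquiv.finrank_eq (Submodule.equivMapOfInjective W hWinj U)).symm
    rw [← hmap] at hx
    obtain ⟨z, hz, rfl⟩ := hx
    rwa [← Module.End.mul_apply, hW'W, Module.End.one_apply]
  have hPinv : ∀ x ∈ perp hQ U, W x ∈ perp hQ U := fun x hx u hu => by
    rw [← hadjW.symm]; exact hx _ (hUinv' u hu)
  have hRinv : ∀ x ∈ R, W x ∈ R := fun x hx => ⟨hUinv x hx.1, hPinv x hx.2⟩
  have hadjW' := hadjW.symm
  have hD := skew_injective hQ h2 hw hr hwr hfix
  rcases hUmin R hRinv inf_le_left with hR0 | hRU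
  · -- a non-degenerate invariant subspace
    have hsup : U ⊔ perp hQ U = ⊤ := by
      refine Submodule.eq_top_of_finrank_eq ?_
      have h1 := Submodule.finrank_sup_add_finrank_inf_eq U (perp hQ U)
      rw [← hR, hR0, finrank_bot] at h1
      have h3 := finrank_perp_add hQ U
      rw [finrank_fintype_fun_eq_card]; omega
    have hcompl : IsCompl U (perp hQ U) := IsCompl.of_eq hR0 hsup
    set e : Module.End F (ι → F) := Submodule.projection U (perp hQ U) hcompl with he
    have he1 : ∀ x, e x ∈ U := fun x => Submodule.projection_apply_mem hcompl x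
    have he2 : ∀ x ∈ U, e x = x := fun x hx => Submodule.projection_apply_of_mem_left hcompl hx
    have he3 : ∀ x, x - e x ∈ perp hQ U := fun x => by
      have := Submodule.projection_add_projection_eq_self hcompl x
      rw [show x - e x = Submodule.projection (perp hQ U) U hcompl.symm x from sub_eq_of_eq_add (this.symm.trans (add_comm _ _))]
      exact Submodule.projection_apply_mem _ _
    have hee : e * e = e := LinearMap.ext fun x => he2 _ (he1 x)
    have hadje : Adj hQ e e := fun x y => by
      have h1 : bform hQ (e x) (y - e y) = 0 := he3 y _ (he1 x)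
      have h3 : bform hQ (x - e x) (e y) = 0 := by rw [b_symm hQ]; exact he3 x _ (he1 y)
      rw [map_sub] at h1
      rw [map_sub, LinearMap.sub_apply] at h3
      linear_combination h1 - h3
    have hzero : ∀ z, z ∈ U → z ∈ perp hQ U → z = 0 := fun z h1 h3 => by
      have : z ∈ R := ⟨h1, h3⟩
      rwa [hR0, Submodule.mem_bot] at this
    have heW : Commute W e := LinearMap.ext fun x => sub_eq_zero.1 (hzero (W (e x) - e (W x))
      (U.sub_mem (hUinv _ (he1 x)) (he1 _)) (by
        rw [show W (e x) - e (W x) = (W x - e (W x)) - W (x - e x) by rw [map_sub]; abel]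
        exact Submodule.sub_mem _ (he3 _) (hPinv _ (he3 x))))
    have heW' : Commute W' e := by
      have h := congrArg (fun M => W' * M * W') heW.eq
      simp only [← mul_assoc, hW'W, one_mul] at h
      simp only [mul_assoc, hWW', mul_one] at h
      exact h.symm
    have heb : Commute b e := commute_aeval heW P
    have heb' : Commute b' e := commute_aeval heW' P
    have hbb' : Commute b b' :=
      commute_aeval (commute_aeval (show Commute W' W from hW'W.trans hWW'.symm) P).symm P
    have hWb' : Commute W b' := (commute_aeval (show Commute W' W from hW'W.trans hWW'.symm) P).symm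
    have hW'b : Commute W' b := (commute_aeval (show Commute W W' from hWW'.trans hW'W.symm) P).symm
    set f := (1 : Module.End F (ι → F)) - e with hf
    have hfe : f * e = 0 := by rw [hf, sub_mul, one_mul, hee, sub_self]
    have hef : e * f = 0 := by rw [hf, mul_sub, mul_one, hee, sub_self]
    have hff : f * f = f := by rw [hf, mul_sub, mul_one, sub_mul, one_mul, hee, sub_self, sub_zero]
    have hfW : Commute W f := (Commute.one_right W).sub_right heW
    have hfW' : Commute W' f := (Commute.one_right W').sub_right heW'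
    have hfb : Commute b f := (Commute.one_right b).sub_right heb
    have hfb' : Commute b' f := (Commute.one_right b').sub_right heb'
    set T := b * e + W * f with hT
    set S := b' * e + W' * f with hS
    have hTS : Adj hQ T S := by
      have h1 : Adj hQ (b * e) (e * b') := hadjb.mul hadje
      have h3 : Adj hQ (W * f) (f * W') := hadjW.mul (Adj.one.sub hadje)
      rw [hS, heb'.eq, hfW'.eq]
      exact h1.add h3
    have hTW : Commute W T := (hbW.mul_right heW).add_right ((Commute.refl W).mul_right hfW)
    have hSW : Commute W S := (hWb'.mul_right heW).add_right ((show Commute W W' from hWW'.trans hW'W.symm).mul_right hfW)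
    have hTScomm : T * S = S * T := by
      have k1 : Commute (b * e) (b' * e) := (hbb'.mul_right heb).mul_left ((heb'.symm).mul_right (Commute.refl e))
      have k2 : Commute (b * e) (W' * f) := (hW'b.symm.mul_right hfb).mul_left
        ((heW'.symm).mul_right (show Commute e f from hef.trans hfe.symm))
      have k3 : Commute (W * f) (b' * e) := (hWb'.mul_right heW).mul_left
        (hfb'.symm.mul_right (show Commute f e from hfe.trans hef.symm))
      have k4 : Commute (W * f) (W' * f) := ((show Commute W W' from hWW'.trans hW'W.symm).mul_right hfW).mul_left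
        (hfW'.symm.mul_right (Commute.refl f))
      exact ((k1.add_right k2).add_left (k3.add_right k4)).eq
    have hfac : T = (b * e + f) * (e + W * f) := by
      have a1 : e * (W * f) = 0 := by rw [← mul_assoc, ← heW.eq, mul_assoc, hef, mul_zero]
      have a2 : f * (W * f) = W * f := by rw [← mul_assoc, ← hfW.eq, mul_assoc, hff]
      rw [hT, add_mul, mul_add, mul_add, mul_assoc, hee, mul_assoc, a1, mul_zero, hfe, a2]
      abel
    have hR' : ∀ n : ℕ, (e + W * f) ^ n = e + W ^ n * f := by
      intro n
      induction n with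
      | zero => simp [hf]
      | succ n ih =>
        have a1 : e * (W * f) = 0 := by rw [← mul_assoc, ← heW.eq, mul_assoc, hef, mul_zero]
        have a2 : f * (W * f) = W * f := by rw [← mul_assoc, ← hfW.eq, mul_assoc, hff]
        rw [pow_succ, ih, add_mul, mul_add, mul_add, hee, a1, mul_assoc, hfe, mul_zero, mul_assoc, a2, ← mul_assoc,
          ← pow_succ]
        abel
    have hdet : LinearMap.det T = ε * LinearMap.det (e + W * f) := by
      rw [hfac, map_mul, hdetE e he1 he2]
    have hsqR : IsSquare (LinearMap.det (e + W * f)) :=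
      det_sq_of_pow_odd hQ h2 hw hr hrF hwr hfix (by rw [hR', hWr, one_mul, hf]; abel)
    have hε0 : ε ≠ 0 := by rintro rfl; exact hε IsSquare.zero
    have hRne : LinearMap.det (e + W * f) ≠ 0 := by
      intro h0
      have h := congrArg LinearMap.det (hR' r)
      rw [map_pow, h0, zero_pow (Nat.pos_of_ne_zero fun h => by simp [h] at hrF).ne', hWr, one_mul, hf,
        add_sub_cancel, map_one] at h
      exact zero_ne_one h
    have hbeq : ¬ (b * e = b' * e) := by
      intro hcon
      refine hε ?_
      rw [← hdetE e he1 he2]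
      have hinj : Function.Injective (b * e + f) := by
        refine (injective_iff_map_eq_zero _).2 fun x hx => ?_
        have h1 := congrArg e hx
        rw [map_zero, ← Module.End.mul_apply, mul_add, hef, add_zero, ← mul_assoc, ← heb.eq, mul_assoc, hee] at h1
        have h3 := hbinj _ (he1 x) h1
        rw [LinearMap.add_apply, Module.End.mul_apply, h3, map_zero, zero_add, hf, LinearMap.sub_apply, h3,
          Module.End.one_apply, sub_zero] at hx
        exact hx
      refine isSquare_det_of_selfadjoint hQ h2 hw hr hwr hfix hinj ?_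
        ((hbW.mul_right heW).add_right hfW) ((hW'b.mul_right heW').add_right hfW')
      have := (hadjb.mul hadje).add (Adj.one.sub hadje)
      rwa [← heb'.eq, ← hcon] at this
    have hinjD : Function.Injective (S - T) := by
      refine (injective_iff_map_eq_zero _).2 fun x hx => ?_
      have hST : S - T = (b' - b) * e + (W' - W) * f := by rw [hS, hT, sub_mul, sub_mul]; abel
      rw [hST] at hx
      have he' : e * ((b' - b) * e + (W' - W) * f) = (b' - b) * e := by
        rw [mul_add, ← mul_assoc, ← (heb'.sub_left heb).eq, mul_assoc, hee, ← mul_assoc e,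
          ← (heW'.sub_left heW).eq, mul_assoc, hef, mul_zero, add_zero]
      have h1 : ((b' - b) * e) x = 0 := by rw [← he', Module.End.mul_apply, hx, map_zero]
      have hKinv : ∀ z ∈ U ⊓ LinearMap.ker (b' - b), W z ∈ U ⊓ LinearMap.ker (b' - b) := fun z hz =>
        ⟨hUinv z hz.1, LinearMap.mem_ker.2 (by
          rw [← Module.End.mul_apply, ← (hWb'.sub_right hbW).eq, Module.End.mul_apply,
            LinearMap.mem_ker.1 hz.2, map_zero])⟩
      have hK : U ⊓ LinearMap.ker (b' - b) = ⊥ := (hUmin _ hKinv inf_le_left).resolve_right fun h => hbeq (by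
        refine LinearMap.ext fun z => ?_
        have : e z ∈ LinearMap.ker (b' - b) := (h.symm ▸ he1 z : e z ∈ U ⊓ LinearMap.ker (b' - b)).2
        rw [LinearMap.mem_ker, LinearMap.sub_apply, sub_eq_zero] at this
        exact this.symm)
      have hex : e x = 0 := by
        have : e x ∈ U ⊓ LinearMap.ker (b' - b) := ⟨he1 x, h1⟩
        rwa [hK, Submodule.mem_bot] at this
      rw [LinearMap.add_apply, h1, zero_add, Module.End.mul_apply, show f x = x by
        rw [hf, LinearMap.sub_apply, hex, sub_zero, Module.End.one_apply]] at hx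
      refine hD ?_
      rw [map_zero, show act w - act w⁻¹ = -(W' - W) by rw [neg_sub], LinearMap.neg_apply, hx, neg_zero]
    obtain ⟨c, hc1, hc2, hc3⟩ := exists_isometry_of_adj hQ h2 hw hr hwr hfix hexc hTS hTScomm hTW hSW
      (by rw [hdet]; exact mul_ne_zero hε0 hRne) hinjD
    refine ⟨c, hc1, hc2, fun h => hε ?_⟩
    have h' := hc3.1 h
    rw [hdet, Classical.Orth.isSquare_mul_iff hε0 hRne] at h'
    exact h'.2 hsqR
  · -- a totally singular invariant subspace
    have hTS0 : ∀ x ∈ U, ∀ y ∈ U, bform hQ x y = 0 := fun x hx y hy => by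
      have : y ∈ R := by rw [hRU]; exact hy
      exact this.2 x hx
    obtain ⟨U₁, hU₁⟩ := Submodule.exists_isCompl U
    set p : Module.End F (ι → F) := Submodule.projection U U₁ hU₁ with hp
    obtain ⟨e₀, he₀⟩ : ∃ e₀ : Module.End F (ι → F), e₀ = (r : F)⁻¹ • ∑ j ∈ Finset.range r, W ^ j * p * W ^ (r - j) :=
      ⟨_, rfl⟩
    have hWj : ∀ j, ∀ x ∈ U, (W ^ j) x ∈ U := fun j => by
      induction j with
      | zero => intro x hx; simpa using hx
      | succ j ih => intro x hx; rw [pow_succ', Module.End.mul_apply]; exact hUinv _ (ih x hx)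
    have he01 : ∀ x, e₀ x ∈ U := fun x => by
      rw [he₀, LinearMap.smul_apply, LinearMap.sum_apply]
      refine U.smul_mem _ (U.sum_mem fun j _ => ?_)
      exact hWj j _ (Submodule.projection_apply_mem hU₁ _)
    have he02 : ∀ x ∈ U, e₀ x = x := fun x hx => by
      rw [he₀, LinearMap.smul_apply, LinearMap.sum_apply, Finset.sum_congr rfl (g := fun _ => x) fun j hj => ?_,
        Finset.sum_const, Finset.card_range, ← Nat.cast_smul_eq_nsmul F, smul_smul, inv_mul_cancel₀ hrF, one_smul]
      rw [Module.End.mul_apply, Module.End.mul_apply, hp,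
        Submodule.projection_apply_of_mem_left hU₁ (hWj _ x hx), ← Module.End.mul_apply, ← pow_add,
        Nat.add_sub_cancel' (Finset.mem_range.1 hj).le, hWr, Module.End.one_apply]
    have heW0 : Commute W e₀ := by
      show W * e₀ = e₀ * W
      rw [he₀, mul_smul_comm, smul_mul_assoc, Finset.mul_sum, Finset.sum_mul]
      congr 1
      let t : ℕ → Module.End F (ι → F) := fun j => W ^ j * p * W ^ (r + 1 - j)
      rw [Finset.sum_congr rfl (g := fun j => t (j + 1)) fun j hj => ?_,
        Finset.sum_congr rfl (s₁ := Finset.range r) (f := fun j => W ^ j * p * W ^ (r - j) * W) (g := t) fun j hj => ?_]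
      · have h1 := Finset.sum_range_succ' t r
        have h3 := Finset.sum_range_succ t r
        have h4 : t r = t 0 := by
          show W ^ r * p * W ^ (r + 1 - r) = W ^ 0 * p * W ^ (r + 1 - 0)
          rw [hWr, Nat.add_sub_cancel_left, Nat.sub_zero, pow_succ W r, hWr, pow_zero, one_mul, pow_one, one_mul]
        rw [h3, h4] at h1
        exact (add_right_cancel h1).symm
      · show _ = W ^ j * p * W ^ (r + 1 - j)
        rw [mul_assoc (W ^ j * p), ← pow_succ, Nat.succ_sub (Finset.mem_range.1 hj).le]
      · show _ = W ^ (j + 1) * p * W ^ (r + 1 - (j + 1))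
        rw [← mul_assoc, ← mul_assoc, ← pow_succ', Nat.add_sub_add_right]
    obtain ⟨e₁, hadj0⟩ := exists_adj hQ e₀
    set e := e₀ - (2 : F)⁻¹ • (e₀ * e₁) with he
    set g := e₁ - (2 : F)⁻¹ • (e₀ * e₁) with hg
    have hadje : Adj hQ e g := hadj0.sub ((hadj0.mul hadj0.symm).smul _)
    have h00 : e₀ * e₀ = e₀ := LinearMap.ext fun x => he02 _ (he01 x)
    have h10 : e₁ * e₀ = 0 := LinearMap.ext fun x => b_ext hQ fun z => by
      rw [Module.End.mul_apply, ← hadj0, LinearMap.zero_apply, map_zero, hTS0 _ (he01 z) _ (he01 x)]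
    have h11 : e₁ * e₁ = e₁ := Adj.unique (hadj0.mul hadj0) (h00.symm ▸ hadj0)
    have q1 : e₀ * (e₀ * e₁) = e₀ * e₁ := by rw [← mul_assoc, h00]
    have q3 : e₀ * e₁ * e₁ = e₀ * e₁ := by rw [mul_assoc, h11]
    have q4 : e₀ * e₁ * e₀ = 0 := by rw [mul_assoc, h10, mul_zero]
    have q5 : e₁ * (e₀ * e₁) = 0 := by rw [← mul_assoc, h10, zero_mul]
    have q6 : e₀ * e₁ * (e₀ * e₁) = 0 := by rw [← mul_assoc, q4, zero_mul]
    have hee : e * e = e := by
      rw [he, mul_sub, sub_mul, sub_mul, h00, smul_mul_assoc, q4, smul_zero, sub_zero, mul_smul_comm, q1,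
        smul_mul_assoc, mul_smul_comm, q6, smul_zero, smul_zero, sub_zero]
    have hge : g * e = 0 := by
      rw [he, hg, mul_sub, sub_mul, sub_mul, h10, smul_mul_assoc, q4, smul_zero, sub_zero, mul_smul_comm, q5,
        smul_zero, smul_mul_assoc, mul_smul_comm, q6, smul_zero, smul_zero, sub_zero, sub_zero]
    have heg : e * g = 0 := by
      rw [he, hg, mul_sub, sub_mul, sub_mul, smul_mul_assoc, q3, mul_smul_comm, q1, smul_mul_assoc, mul_smul_comm, q6,
        smul_zero, smul_zero, sub_zero]
      have h : (1 : F) - (2 : F)⁻¹ - (2 : F)⁻¹ = 0 := by field_simp; ring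
      calc e₀ * e₁ - (2 : F)⁻¹ • (e₀ * e₁) - (2 : F)⁻¹ • (e₀ * e₁)
          = ((1 : F) - (2 : F)⁻¹ - (2 : F)⁻¹) • (e₀ * e₁) := by module
        _ = 0 := by rw [h, zero_smul]
    have hgg : g * g = g := Adj.unique (hadje.mul hadje) (hee.symm ▸ hadje)
    have he1 : ∀ x, e x ∈ U := fun x => by
      rw [he, LinearMap.sub_apply, LinearMap.smul_apply, Module.End.mul_apply]
      exact U.sub_mem (he01 _) (U.smul_mem _ (he01 _))
    have he2 : ∀ x ∈ U, e x = x := fun x hx => by
      rw [he, LinearMap.sub_apply, LinearMap.smul_apply, he02 x hx, Module.End.mul_apply]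
      have : e₁ x = 0 := by rw [← he02 x hx, ← Module.End.mul_apply, h10, LinearMap.zero_apply]
      rw [this, map_zero, smul_zero, sub_zero]
    have he1W : Commute W e₁ := by
      have hW'e0 : Commute W' e₀ := by
        have h := congrArg (fun M => W' * M * W') heW0.eq
        simp only [← mul_assoc, hW'W, one_mul] at h
        simp only [mul_assoc, hWW', mul_one] at h
        exact h.symm
      exact Adj.unique (hadjW'.mul hadj0) (hW'e0.symm.eq ▸ hadj0.mul hadjW') |>.symm
    have heW : Commute W e := heW0.sub_right ((heW0.mul_right he1W).smul_right _)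
    have hgW : Commute W g := he1W.sub_right ((heW0.mul_right he1W).smul_right _)
    have inv_comm : ∀ M : Module.End F (ι → F), Commute W M → Commute W' M := fun M hM => by
      have h := congrArg (fun N => W' * N * W') hM.eq
      simp only [← mul_assoc, hW'W, one_mul] at h
      simp only [mul_assoc, hWW', mul_one] at h
      exact h.symm
    set f := (1 : Module.End F (ι → F)) - e - g with hf
    have hadjf : Adj hQ f f := by
      have := (Adj.one.sub hadje).sub hadje.symm
      rwa [show (1 : Module.End F (ι → F)) - g - e = f by rw [hf]; abel] at this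
    have hef : e * f = 0 := by rw [hf, mul_sub, mul_sub, mul_one, hee, heg, sub_self, sub_zero]
    have hgf : g * f = 0 := by rw [hf, mul_sub, mul_sub, mul_one, hge, hgg, sub_zero, sub_self]
    have hfe : f * e = 0 := by rw [hf, sub_mul, sub_mul, one_mul, hee, hge, sub_self, sub_zero]
    have hfg : f * g = 0 := by rw [hf, sub_mul, sub_mul, one_mul, heg, hgg, sub_zero, sub_self]
    have hff : f * f = f := by
      conv_lhs => arg 1; rw [hf]
      rw [sub_mul, sub_mul, one_mul, hef, hgf, sub_zero, sub_zero]
    have hfW : Commute W f := ((Commute.one_right W).sub_right heW).sub_right hgW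
    have heb : Commute b e := commute_aeval heW P
    have hgb : Commute b g := commute_aeval hgW P
    have hfb : Commute b f := commute_aeval hfW P
    have heb' : Commute b' e := commute_aeval (inv_comm e heW) P
    have hgb' : Commute b' g := commute_aeval (inv_comm g hgW) P
    have hfb' : Commute b' f := commute_aeval (inv_comm f hfW) P
    have hWb' : Commute W b' := (commute_aeval (show Commute W' W from hW'W.trans hWW'.symm) P).symm
    set T := b * e + g + W * f with hT
    set S := b' * g + e + W' * f with hS
    have hTS : Adj hQ T S := by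
      have h := ((hadjb.mul hadje).add hadje.symm).add (hadjW.mul hadjf)
      rwa [← hgb'.eq, ← (inv_comm f hfW).eq] at h
    have hTW : Commute W T := ((hbW.mul_right heW).add_right hgW).add_right ((Commute.refl W).mul_right hfW)
    have hSW : Commute W S := ((hWb'.mul_right hgW).add_right heW).add_right
      ((show Commute W W' from hWW'.trans hW'W.symm).mul_right hfW)
    have left_e : e * (b * e) = b * e := by rw [← mul_assoc, ← heb.eq, mul_assoc, hee]
    have left_g : g * (b * e) = 0 := by rw [← mul_assoc, ← hgb.eq, mul_assoc, hge, mul_zero]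
    have left_f : f * (b * e) = 0 := by rw [← mul_assoc, ← hfb.eq, mul_assoc, hfe, mul_zero]
    have le' : e * (b' * g) = 0 := by rw [← mul_assoc, ← heb'.eq, mul_assoc, heg, mul_zero]
    have lg' : g * (b' * g) = b' * g := by rw [← mul_assoc, ← hgb'.eq, mul_assoc, hgg]
    have lf' : f * (b' * g) = 0 := by rw [← mul_assoc, ← hfb'.eq, mul_assoc, hfg, mul_zero]
    have eWf : ∀ M : Module.End F (ι → F), Commute M e → e * (M * f) = 0 := fun M hM => by
      rw [← mul_assoc, ← hM.eq, mul_assoc, hef, mul_zero]
    have gWf : ∀ M : Module.End F (ι → F), Commute M g → g * (M * f) = 0 := fun M hM => by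
      rw [← mul_assoc, ← hM.eq, mul_assoc, hgf, mul_zero]
    have fWf : ∀ M : Module.End F (ι → F), Commute M f → f * (M * f) = M * f := fun M hM => by
      rw [← mul_assoc, ← hM.eq, mul_assoc, hff]
    have hTS1 : T * S = b * e + b' * g + f := by
      rw [hT, hS]
      simp only [add_mul, mul_add, mul_assoc, hee, le', hef, lg', hge, hgf, lf', hfe, mul_zero, zero_add, add_zero,
        eWf W' (inv_comm e heW), gWf W' (inv_comm g hgW), fWf W' (inv_comm f hfW)]
      rw [← mul_assoc W, hWW', one_mul]
      abel
    have hTS2 : S * T = b * e + b' * g + f := by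
      rw [hT, hS]
      simp only [add_mul, mul_add, mul_assoc, hgg, left_g, hgf, left_e, heg, hef, left_f, hfg, mul_zero, zero_add,
        add_zero, eWf W heW, gWf W hgW, fWf W hfW]
      rw [← mul_assoc W', hW'W, one_mul]
    have hfac : T = (b * e + (1 - e)) * (e + g + W * f) := by
      have h1e : (1 - e) = g + f := by rw [hf]; abel
      rw [hT, h1e]
      simp only [add_mul, mul_add, mul_assoc, hee, heg, hge, hgg, hfe, hfg, eWf W heW, gWf W hgW, fWf W hfW,
        mul_zero, zero_add, add_zero, add_assoc]
    have hR' : ∀ n : ℕ, (e + g + W * f) ^ n = e + g + W ^ n * f := by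
      intro n
      induction n with
      | zero => simp [hf]
      | succ n ih =>
        rw [pow_succ, ih, pow_succ]
        simp only [add_mul, mul_add, mul_assoc, hee, heg, hge, hgg, hfe, hfg, eWf W heW, gWf W hgW, fWf W hfW,
          mul_zero, zero_add, add_zero]
    have hdet : LinearMap.det T = ε * LinearMap.det (e + g + W * f) := by
      rw [hfac, map_mul, hdetE e he1 he2]
    have hone : (e + g + W * f) ^ r = 1 := by rw [hR', hWr, one_mul, hf]; abel
    have hsqR : IsSquare (LinearMap.det (e + g + W * f)) := det_sq_of_pow_odd hQ h2 hw hr hrF hwr hfix hone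
    have hε0 : ε ≠ 0 := by rintro rfl; exact hε IsSquare.zero
    have hRne : LinearMap.det (e + g + W * f) ≠ 0 := by
      intro h0
      have h := congrArg LinearMap.det hone
      rw [map_pow, h0, zero_pow (Nat.pos_of_ne_zero fun h => by simp [h] at hrF).ne', map_one] at h
      exact zero_ne_one h
    have hb1 : U ⊓ LinearMap.ker (b - 1) = ⊥ := by
      refine (hUmin (U ⊓ LinearMap.ker (b - 1)) (fun z hz => ⟨hUinv z hz.1, LinearMap.mem_ker.2 ?_⟩) inf_le_left).resolve_right fun h => ?_
      · rw [← Module.End.mul_apply, ← (hbW.sub_right (Commute.one_right W)).eq,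
          Module.End.mul_apply, LinearMap.mem_ker.1 hz.2, map_zero]
      · refine hε ?_
        rw [← hPdet, show Polynomial.aeval (W.restrict hUinv) P = 1 from LinearMap.ext fun x => Subtype.ext ?_, map_one]
        · exact IsSquare.one
        · rw [hrestr, Module.End.one_apply]
          have : (x : ι → F) ∈ LinearMap.ker (b - 1) := (h.symm ▸ x.2 : (x : ι → F) ∈ U ⊓ LinearMap.ker (b - 1)).2
          rwa [LinearMap.mem_ker, LinearMap.sub_apply, sub_eq_zero] at this
    have hinjD : Function.Injective (S - T) := by
      refine (injective_iff_map_eq_zero _).2 fun x hx => ?_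
      have hST : S - T = (1 - b) * e + (b' - 1) * g + (W' - W) * f := by
        rw [hS, hT, sub_mul, sub_mul, sub_mul, one_mul, one_mul]; abel
      rw [hST] at hx
      have p1 : e * ((1 - b) * e + (b' - 1) * g + (W' - W) * f) = (1 - b) * e := by
        rw [mul_add, mul_add, eWf _ ((inv_comm e heW).sub_left heW), ← mul_assoc, ← ((Commute.one_left e).sub_left heb).eq,
          mul_assoc, hee, ← mul_assoc e, ← (heb'.sub_left (Commute.one_left e)).eq, mul_assoc, heg, mul_zero,
          add_zero, add_zero]
      have p2 : g * ((1 - b) * e + (b' - 1) * g + (W' - W) * f) = (b' - 1) * g := by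
        rw [mul_add, mul_add, gWf _ ((inv_comm g hgW).sub_left hgW), ← mul_assoc, ← ((Commute.one_left g).sub_left hgb).eq,
          mul_assoc, hge, mul_zero, ← mul_assoc g, ← (hgb'.sub_left (Commute.one_left g)).eq, mul_assoc, hgg,
          zero_add, add_zero]
      have h1 : ((1 - b) * e) x = 0 := by rw [← p1, Module.End.mul_apply, hx, map_zero]
      have h3 : ((b' - 1) * g) x = 0 := by rw [← p2, Module.End.mul_apply, hx, map_zero]
      have hex : e x = 0 := by
        have : e x ∈ U ⊓ LinearMap.ker (b - 1) := ⟨he1 x, LinearMap.mem_ker.2 (by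
          rw [← neg_sub, LinearMap.neg_apply]
          exact neg_eq_zero.2 h1)⟩
        rwa [hb1, Submodule.mem_bot] at this
      let B₁ : U →ₗ[F] U := Polynomial.aeval (W.restrict hUinv) P - 1
      have hB₁ : Function.Surjective B₁ := LinearMap.injective_iff_surjective.1 ((injective_iff_map_eq_zero B₁).2 fun z hz => by
        have h' := congrArg Subtype.val hz
        simp only [B₁, LinearMap.sub_apply, Module.End.one_apply, Submodule.coe_sub, hrestr, Submodule.coe_zero] at h'
        have : (z : ι → F) ∈ U ⊓ LinearMap.ker (b - 1) := ⟨z.2, LinearMap.mem_ker.2 (by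
          rw [LinearMap.sub_apply, Module.End.one_apply]; exact h')⟩
        rw [hb1, Submodule.mem_bot] at this
        exact Subtype.ext this)
      have hgx : g x = 0 := b_ext hQ fun z => by
        rw [map_zero, ← hgg, Module.End.mul_apply, ← hadje z]
        obtain ⟨u, hu⟩ := hB₁ ⟨e z, he1 z⟩
        have hu' : (b - 1) (u : ι → F) = e z := by
          have := congrArg Subtype.val hu
          simpa [B₁, hrestr] using this
        rw [← hu', (hadjb.sub Adj.one) _ _, ← Module.End.mul_apply, h3, map_zero]
      have hfx : ((W' - W) * f) x = 0 := by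
        rw [LinearMap.add_apply, LinearMap.add_apply, h1, h3, zero_add, zero_add] at hx; exact hx
      rw [Module.End.mul_apply, show f x = x by
        rw [hf, LinearMap.sub_apply, LinearMap.sub_apply, Module.End.one_apply, hex, hgx, sub_zero, sub_zero]] at hfx
      refine hD ?_
      rw [map_zero, show act w - act w⁻¹ = -(W' - W) by rw [neg_sub], LinearMap.neg_apply, hfx, neg_zero]
    obtain ⟨c, hc1, hc2, hc3⟩ := exists_isometry_of_adj hQ h2 hw hr hwr hfix hexc hTS (hTS1.trans hTS2.symm) hTW hSW
      (by rw [hdet]; exact mul_ne_zero hε0 hRne) hinjD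
    refine ⟨c, hc1, hc2, fun h => hε ?_⟩
    have h' := hc3.1 h
    rw [hdet, Classical.Orth.isSquare_mul_iff hε0 hRne] at h'
    exact h'.2 hsqR

end CfsgLib.AutOrthFusion
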