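import Cfsg.Agent.AutOrthFusion.Block
import Cfsg.Agent.AutOrthGraph.Split
import Cfsg.Agent.Classical.Orth.OddConj

/-! Fusion of semisimple automorphisms of odd order under similarities. -/

set_option autoImplicit false
set_option linter.unusedSectionVars false

namespace CfsgLib.AutOrthFusion

open Cfsg Cfsg.Geo CfsgLib.OrthGeo CfsgLib.AutOrth CfsgLib.AutOrthGraph Module
open CfsgLib.AutOrthField (Sim scalarSim mult mult_spec mult_scalarSim coe_scalarSim scalar_mulVec)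
open CfsgLib.Classical.Orth (classHom refl coe_refl classHom_refl_fst classHom_refl_snd not_exc_of_two_ne_zero
  exists_not_isSquare exists_isometry_conj_of_conj fixedSpace residual mem_fixedSpace fixedSpace_inf_residual
  finrank_residual_add residual_eq_perp exists_q_eq_on)
open scoped Matrix MatrixGroups

variable {ι : Type} [Fintype ι] [DecidableEq ι] [Nonempty ι] {F : Type*} [Field F] [Finite F] {Q : (ι → F) → F}

variable (hQ : IsNondegenerateQuadraticForm Q) (h2 : (2 : F) ≠ 0) {k : ℕ} (hk : Fintype.card ι = 2 * k)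
  (h5 : 5 ≤ Fintype.card ι) {hne : ∃ v, Q v ≠ 0}
include hQ h2 hk h5

local notation "cl" => classHom hQ (not_exc_of_two_ne_zero (ι := ι) h2)

/-- An automorphism of odd order in the conformal group comes from an isometry of that order. -/
lemma exists_isometry_lift {x : MulAut (POmega F Q)} (hx : x ∈ pgoAut F Q) {r : ℕ} (hr : Odd r) (hxr : x ^ r = 1) :
    ∃ w : isometryGroup F Q, w ^ r = 1 ∧ conjS Q (isoSim Q w) = x := by
  have hne' : ∃ v, Q v ≠ 0 := by
    by_contra h'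
    push Not at h'
    obtain ⟨i⟩ := ‹Nonempty ι›
    obtain ⟨⟨y, hy⟩, -⟩ := hQ.nondegenerate (Pi.single i 1) (by simp)
    exact hy (by simp [QuadraticMap.polar, h'])
  rw [pgoAut_eq, Subgroup.mem_map] at hx
  obtain ⟨g, -, rfl⟩ := hx
  obtain ⟨j, hj⟩ := hr
  have hsq : IsSquare (mult hne' (g ^ (r + 1)) : F) :=
    ⟨(mult hne' g : F) ^ (j + 1), by rw [map_pow, Units.val_pow_eq_pow_val, ← pow_add]; congr 1; omega⟩
  obtain ⟨s, h, -, e, -⟩ := exists_iso_of_isSquare hQ h2 hk h5 (k := k) hsq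
  have hh : conjS Q (isoSim Q h) = conjS Q g := by
    have e' := congrArg (conjS Q) e
    rw [map_mul, AutOrthField.conjS_scalarSim, one_mul, map_pow, pow_succ, hxr, one_mul] at e'
    exact e'.symm
  have hhr : conjS Q (isoSim Q (h ^ r)) = 1 := by rw [map_pow, map_pow, hh, hxr]
  obtain ⟨u, hu⟩ := AutOrthField.exists_scalar_of_conjS_eq_one hQ h5 hhr
  have hu2 : u ^ 2 = 1 := by
    have e' := congrArg (mult hne') hu
    rwa [mult_isoSim hQ h2 hk h5, mult_scalarSim, eq_comm] at e'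
  refine ⟨h ^ (r + 1), ?_, ?_⟩
  · refine Subgroup.inclusion_injective (isometry_le_similarity Q) ?_
    show isoSim Q ((h ^ (r + 1)) ^ r) = isoSim Q 1
    rw [← pow_mul, mul_comm, pow_mul, map_pow, hu, ← map_pow, show r + 1 = 2 * (j + 1) by omega, pow_mul, hu2,
      one_pow, map_one, map_one]
  · rw [map_pow, map_pow, hh, pow_succ, hxr, one_mul]

variable {w : isometryGroup F Q} {r : ℕ} (hr : Odd r) (hrF : (r : F) ≠ 0) (hwr : w ^ r = 1)
include hr hrF hwr

lemma gl_pow_eq_one : (w : GL ι F) ^ r = 1 := by rw [← SubmonoidClass.coe_pow, hwr, OneMemClass.coe_one]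

/-- Either no non-zero fixed vector, or a non-degenerate fixed space of dimension at least two. -/
lemma fix_dichotomy : (∀ x, ((w : GL ι F) : Matrix ι ι F) *ᵥ x = x → x = 0) ∨
    ∃ u v : ι → F, Q u = 1 ∧ ¬ IsSquare (Q v) ∧ ((w : GL ι F) : Matrix ι ι F) *ᵥ u = u ∧
      ((w : GL ι F) : Matrix ι ι F) *ᵥ v = v := by
  by_cases hbot : fixedSpace (w : GL ι F) = ⊥
  · exact Or.inl fun x hx => (Submodule.mem_bot F).1 (hbot ▸ mem_fixedSpace.2 hx)
  right
  have hwr' := gl_pow_eq_one hQ h2 hk h5 hr hrF hwr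
  have hTn : ∀ x ∈ fixedSpace (w : GL ι F), x ≠ 0 → ∃ y ∈ fixedSpace (w : GL ι F), bform hQ x y ≠ 0 := by
    intro x hx hx0
    by_contra h
    push Not at h
    refine hx0 ((Submodule.mem_bot F).1 (fixedSpace_inf_residual hwr' hrF ▸ (⟨?_, hx⟩ : x ∈ residual (w : GL ι F) ⊓ fixedSpace (w : GL ι F))))
    show x ∈ residual (w : GL ι F)
    rw [residual_eq_perp hQ w.2, mem_perp' hQ]
    exact h
  have hev : Even (finrank F (residual (w : GL ι F))) := by
    rw [← Classical.Orth.classHom_fst hQ (not_exc_of_two_ne_zero (ι := ι) h2) w]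
    have h := congrArg (cl) hwr
    rw [map_pow, map_one] at h
    obtain ⟨j, rfl⟩ := hr
    rw [pow_succ, pow_mul, (by decide : ∀ z : Multiplicative (ZMod 2) × Multiplicative (ZMod 2), z ^ 2 = 1) _, one_pow,
      one_mul] at h
    rw [h]; rfl
  have hpos : 0 < finrank F (fixedSpace (w : GL ι F)) := by
    rw [Nat.pos_iff_ne_zero, Ne, Submodule.finrank_eq_zero]; exact hbot
  have hsum := finrank_residual_add (w : GL ι F)
  obtain ⟨i, hi⟩ := hev
  have h2T : 2 ≤ finrank F (fixedSpace (w : GL ι F)) := by omega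
  obtain ⟨ε, hε⟩ := exists_not_isSquare (F := F) h2
  obtain ⟨u, hu, hu1⟩ := exists_q_eq_on hQ h2 h2T hTn (one_ne_zero (α := F))
  obtain ⟨v, hv, hv1⟩ := exists_q_eq_on hQ h2 h2T hTn (show ε ≠ 0 from fun h => hε (h ▸ IsSquare.zero))
  exact ⟨u, v, hu1, by rwa [hv1], mem_fixedSpace.1 hu, mem_fixedSpace.1 hv⟩

lemma refl_commute {u : ι → F} (hu : Q u ≠ 0) (huw : ((w : GL ι F) : Matrix ι ι F) *ᵥ u = u) :
    refl hQ hu * w = w * refl hQ hu := by
  refine Subtype.ext ?_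
  rw [Subgroup.coe_mul, Subgroup.coe_mul, coe_refl hQ]
  exact (mul_inv_eq_iff_eq_mul.1 (Classical.Orth.conj_reflection hQ w.2 hu hu huw)).symm

/-- A spinor-nontrivial proper isometry in the centraliser. -/
lemma exists_spinor_centralising : ∃ c : isometryGroup F Q, (cl c).1 = 1 ∧ (cl c).2 ≠ 1 ∧ c * w = w * c := by
  rcases fix_dichotomy hQ h2 hk h5 hr hrF hwr with hfix | ⟨u, v, hu, hv, huw, hvw⟩
  · obtain ⟨c, h1, h3, h4⟩ := exists_spinor_element hQ h2 w.2 hr hrF (gl_pow_eq_one hQ h2 hk h5 hr hrF hwr) hfix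
      (not_exc_of_two_ne_zero (ι := ι) h2)
    exact ⟨c, (det_eq_one_iff hQ h2 _ c).1 h3, h4, Subtype.ext h1⟩
  · have hu0 : Q u ≠ 0 := by rw [hu]; exact one_ne_zero
    have hv0 : Q v ≠ 0 := fun h => hv (h ▸ IsSquare.zero)
    have hexc := not_exc_of_two_ne_zero (F := F) (ι := ι) h2
    refine ⟨refl hQ hu0 * refl hQ hv0, ?_, ?_, ?_⟩
    · rw [map_mul, Prod.fst_mul, classHom_refl_fst hQ hexc hu0, classHom_refl_fst hQ hexc hv0]; decide
    · rw [map_mul, Prod.snd_mul, (classHom_refl_snd hQ hexc hu0).2 (by rw [hu]; exact IsSquare.one), one_mul]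
      exact fun h => hv ((classHom_refl_snd hQ hexc hv0).1 h)
    · exact (Commute.mul_left (refl_commute hQ h2 hk h5 hr hrF hwr hu0 huw)
        (refl_commute hQ h2 hk h5 hr hrF hwr hv0 hvw)).eq

/-- A proper similarity with non-square multiplier in the centraliser. -/
lemma exists_outer_centralising {S : Sim Q} (hS : Proper hne k S) (hS' : ¬ IsSquare (mult hne S : F)) :
    ∃ z : Sim Q, Proper hne k z ∧ ¬ IsSquare (mult hne z : F) ∧ z * isoSim Q w = isoSim Q w * z := by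
  set c := mult hne S
  let bS : Sim Q := S * isoSim Q w * S⁻¹
  have hb : (bS : GL ι F) ∈ isometryGroup F Q := mem_isometryGroup.2 fun v => by
    rw [mult_spec hne, map_mul, map_mul, map_inv, mult_isoSim hQ h2 hk h5, mul_one, mul_inv_cancel, Units.val_one, one_mul]
  obtain ⟨g, hg, hgw⟩ := exists_isometry_conj_of_conj hQ w.2 hb (x := (S : GL ι F))
    (gl_pow_eq_one hQ h2 hk h5 hr hrF hwr) hr hrF (by
      simp only [bS, Subgroup.coe_mul, Subgroup.coe_inv, inv_mul_cancel_right]; rfl)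
  let z : Sim Q := (isoSim Q ⟨g, hg⟩)⁻¹ * S
  have hzμ : mult hne z = c := by rw [map_mul, map_inv, mult_isoSim hQ h2 hk h5, inv_one, one_mul]
  have hzw : z * isoSim Q w = isoSim Q w * z := by
    have e : isoSim Q ⟨g, hg⟩ * isoSim Q w = bS * isoSim Q ⟨g, hg⟩ := Subtype.ext hgw
    have e2 : (isoSim Q ⟨g, hg⟩)⁻¹ * bS = isoSim Q w * (isoSim Q ⟨g, hg⟩)⁻¹ := by
      rw [inv_mul_eq_iff_eq_mul, ← mul_assoc, e, mul_inv_cancel_right]
    calc z * isoSim Q w = (isoSim Q ⟨g, hg⟩)⁻¹ * bS * S := by simp only [z, bS]; group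
      _ = isoSim Q w * z := by rw [e2, mul_assoc]
  rcases fix_dichotomy hQ h2 hk h5 hr hrF hwr with hfix | ⟨u, v, hu, hv, huw, hvw⟩
  · refine ⟨z, ?_, by rw [hzμ]; exact hS', hzw⟩
    exact det_of_commute hQ h2 w.2 hr (gl_pow_eq_one hQ h2 hk h5 hr hrF hwr) hfix (Units.ne_zero _) (mult_spec hne z)
      (congrArg Subtype.val hzw) hk
  · by_cases hz : Proper hne k z
    · exact ⟨z, hz, by rw [hzμ]; exact hS', hzw⟩
    have hu0 : Q u ≠ 0 := by rw [hu]; exact one_ne_zero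
    refine ⟨isoSim Q (refl hQ hu0) * z, ?_, by rw [map_mul, mult_isoSim hQ h2 hk h5, one_mul, hzμ]; exact hS', ?_⟩
    · rw [Proper, det_mul_sim hQ h2 hk h5, map_mul, mult_isoSim hQ h2 hk h5, one_mul,
        (det_eq_or hQ h2 hk h5 z).resolve_left hz]
      have hd : ((refl hQ hu0 : isometryGroup F Q) : GL ι F).val.det = -1 := by
        rw [coe_refl hQ]; exact Classical.Orth.det_reflection hQ hu0
      show ((refl hQ hu0 : isometryGroup F Q) : GL ι F).val.det * _ = _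
      rw [hd]; ring
    · exact (Commute.mul_left ((show Commute (refl hQ hu0) w from refl_commute hQ h2 hk h5 hr hrF hwr hu0 huw).map (isoSim Q)) hzw).eq

variable {G : Subgroup (MulAut (POmega F Q))} (hG : ∀ β, β ∈ G ↔ ∃ z : Sim Q, Proper hne k z ∧ conjS Q z = β)
include hG

/-- The inner-diagonal group is covered by the inner automorphisms and the centraliser. -/
theorem le_inn_sup_centralizer {S : Sim Q} (hS : Proper hne k S) (hS' : ¬ IsSquare (mult hne S : F)) :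
    G ≤ Inn (POmega F Q) ⊔ (Subgroup.centralizer {conjS Q (isoSim Q w)} ⊓ G) := by
  haveI := AutOrthGraph.inn_normal (X := POmega F Q)
  set L := Inn (POmega F Q) ⊔ (Subgroup.centralizer {conjS Q (isoSim Q w)} ⊓ G) with hL
  obtain ⟨c, hc1, hc2, hcw⟩ := exists_spinor_centralising hQ h2 hk h5 hr hrF hwr
  obtain ⟨z, hz, hz', hzw⟩ := exists_outer_centralising hQ h2 hk h5 hr hrF hwr hS hS'
  have hzL : conjS Q z ∈ L := Subgroup.mem_sup_right
    ⟨Subgroup.mem_centralizer_singleton_iff.2 (by rw [← map_mul, ← map_mul, hzw]), (hG _).2 ⟨z, hz, rfl⟩⟩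
  have hiso : ∀ h : isometryGroup F Q, (cl h).1 = 1 → conjS Q (isoSim Q h) ∈ L := by
    intro h hh
    have hcL : conjS Q (isoSim Q c) ∈ L := Subgroup.mem_sup_right
      ⟨Subgroup.mem_centralizer_singleton_iff.2 (by rw [← map_mul, ← map_mul, ← map_mul, ← map_mul, hcw]),
        (hG _).2 ⟨_, (proper_isoSim_iff hQ h2 hk h5 c).2 hc1, rfl⟩⟩
    rcases (by decide : ∀ a b : Multiplicative (ZMod 2) × Multiplicative (ZMod 2), a.1 = 1 → b.1 = 1 → b.2 ≠ 1 →
      a = 1 ∨ b⁻¹ * a = 1) _ _ hh hc1 hc2 with e | e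
    · exact Subgroup.mem_sup_left ((conjS_isoSim_mem_inn_iff hQ h2 hk h5 h).2 (Or.inl e))
    · rw [← mul_inv_cancel_left c h, map_mul, map_mul]
      refine mul_mem hcL (Subgroup.mem_sup_left ((conjS_isoSim_mem_inn_iff hQ h2 hk h5 _).2 (Or.inl ?_)))
      rwa [map_mul, map_inv]
  have hsq : ∀ y : Sim Q, Proper hne k y → IsSquare (mult hne y : F) → conjS Q y ∈ L := by
    intro y hy hys
    obtain ⟨s, h, -, e, hp⟩ := exists_iso_of_isSquare hQ h2 hk h5 hys
    rw [e, map_mul, AutOrthField.conjS_scalarSim, one_mul]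
    exact hiso h (hp.1 hy)
  intro β hβ
  obtain ⟨y, hy, rfl⟩ := (hG β).1 hβ
  by_cases hys : IsSquare (mult hne y : F)
  · exact hsq y hy hys
  · have e : conjS Q y = conjS Q (z * y) * (conjS Q z)⁻¹ * ((conjS Q z) * (conjS Q y)⁻¹ * (conjS Q z)⁻¹ * conjS Q y) := by
      rw [map_mul]; group
    have hzy := hsq (z * y) ((proper_mul_iff hQ h2 hk h5 hz).2 hy)
      (by rw [map_mul, Units.val_mul]; exact Classical.Orth.isSquare_mul_of_not hz' hys)
    have e2 : conjS Q y = (conjS Q z)⁻¹ * conjS Q (z * y) := by rw [map_mul, inv_mul_cancel_left]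
    rw [e2]
    exact mul_mem (inv_mem hzL) hzy

omit hr hrF hwr in
lemma inn_le_psoAut : Inn (POmega F Q) ≤ psoAut F Q := by
  rintro _ ⟨y, rfl⟩
  obtain ⟨v, rfl⟩ := QuotientGroup.mk_surjective y
  rw [← conjS_omega]
  refine Subgroup.subset_closure ⟨((v : isometryGroup F Q) : GL ι F), ⟨(v : isometryGroup F Q).2, ?_⟩,
    (induced_iff (isometry_le_similarity Q (v : isometryGroup F Q).2) _).2 rfl⟩
  refine MonoidHom.mem_ker.2 (Units.ext ?_)
  show ((v : isometryGroup F Q) : GL ι F).val.det = 1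
  rw [det_eq_one_iff hQ h2 (not_exc_of_two_ne_zero (ι := ι) h2),
    show cl (v : isometryGroup F Q) = 1 by rw [← MonoidHom.mem_ker, Classical.Orth.ker_classHom]; exact v.2]
  rfl

omit hr hrF hwr in
lemma psoAut_le : psoAut F Q ≤ G := by
  refine (Subgroup.closure_le _).2 ?_
  rintro β ⟨g, ⟨hg, hdet⟩, hind⟩
  refine (hG β).2 ⟨isoSim Q ⟨g, hg⟩, ?_, (induced_iff (isometry_le_similarity Q hg) β).1 hind⟩
  rw [proper_isoSim_iff hQ h2 hk h5, ← det_eq_one_iff hQ h2]
  exact congrArg Units.val (MonoidHom.mem_ker.1 hdet)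

omit hr hrF hwr in
lemma inn_le_poAut : Inn (POmega F Q) ≤ poAut F Q := by
  rintro _ ⟨y, rfl⟩
  obtain ⟨v, rfl⟩ := QuotientGroup.mk_surjective y
  rw [← conjS_omega]
  exact Subgroup.subset_closure ⟨_, (v : isometryGroup F Q).2,
    (induced_iff (isometry_le_similarity Q (v : isometryGroup F Q).2) _).2 rfl⟩

omit hr hrF hwr in
/-- The fusion statement. -/
theorem fusion {S : Sim Q} (hS : Proper hne k S) (hS' : ¬ IsSquare (mult hne S : F)) {x : MulAut (POmega F Q)}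
    (hx : x ∈ pgoAut F Q) {r : ℕ} (hr : Odd r) (hrF : (r : F) ≠ 0) (hxr : x ^ r = 1) :
    (∀ y, (IsConjUnder (Inn (POmega F Q)) x y ↔ IsConjUnder G x y) ∧
      (IsConjUnder (psoAut F Q) x y ↔ IsConjUnder G x y)) ∧
    (∀ y, IsConjUnder (poAut F Q) x y ↔ IsConjUnder (pgoAut F Q) x y) := by
  haveI := AutOrthGraph.inn_normal (X := POmega F Q)
  obtain ⟨w, hwr, rfl⟩ := exists_isometry_lift hQ h2 hk h5 hx hr hxr
  have hle := le_inn_sup_centralizer hQ h2 hk h5 hr hrF hwr hG hS hS'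
  have key : ∀ β ∈ G, ∃ a ∈ Inn (POmega F Q),
      β * conjS Q (isoSim Q w) * β⁻¹ = a * conjS Q (isoSim Q w) * a⁻¹ := by
    intro β hβ
    obtain ⟨a, ha, c, ⟨hc, -⟩, rfl⟩ := Subgroup.mem_sup_of_normal_left.1 (hle hβ)
    refine ⟨a, ha, ?_⟩
    rw [mul_inv_rev, mul_assoc a c, Subgroup.mem_centralizer_singleton_iff.1 hc]
    group
  have hmono : ∀ {A B : Subgroup (MulAut (POmega F Q))}, A ≤ B → ∀ {y}, IsConjUnder A (conjS Q (isoSim Q w)) y →
      IsConjUnder B (conjS Q (isoSim Q w)) y := fun hAB _ ⟨a, ha, e⟩ => ⟨a, hAB ha, e⟩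
  have hinn : ∀ {y}, IsConjUnder G (conjS Q (isoSim Q w)) y →
      IsConjUnder (Inn (POmega F Q)) (conjS Q (isoSim Q w)) y := fun ⟨β, hβ, e⟩ => by
    obtain ⟨a, ha, e'⟩ := key β hβ
    exact ⟨a, ha, e.trans e'⟩
  have h1 := inn_le_psoAut hQ h2 hk h5 hG
  have h3 := psoAut_le hQ h2 hk h5 hG
  refine ⟨fun y => ⟨⟨hmono (h1.trans h3), hinn⟩, ⟨hmono h3, fun h => hmono h1 (hinn h)⟩⟩, fun y => ⟨?_, ?_⟩⟩
  · refine hmono ((Subgroup.closure_le _).2 ?_)
    rintro β ⟨g, hg, hind⟩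
    exact Subgroup.subset_closure ⟨g, isometry_le_similarity Q hg, hind⟩
  · rintro ⟨β, hβ, rfl⟩
    rw [pgoAut_eq, Subgroup.mem_map] at hβ
    obtain ⟨z, -, rfl⟩ := hβ
    by_cases hz : Proper hne k z
    · exact hmono (inn_le_poAut hQ h2 hk h5 hG) (hinn ⟨_, (hG _).2 ⟨z, hz, rfl⟩, rfl⟩)
    obtain ⟨v, hv⟩ := id hne
    set ρ := isoSim Q (refl hQ hv) with hρ
    have hρp : Proper hne k (ρ * z) := by
      rw [Proper, det_mul_sim hQ h2 hk h5, map_mul, mult_isoSim hQ h2 hk h5, one_mul,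
        (det_eq_or hQ h2 hk h5 z).resolve_left hz]
      show ((refl hQ hv : isometryGroup F Q) : GL ι F).val.det * _ = _
      rw [coe_refl hQ, show (OrthGeo.reflection hQ hv : GL ι F).val.det = -1 from Classical.Orth.det_reflection hQ hv]
      ring
    obtain ⟨a, ha, e⟩ := key _ ((hG _).2 ⟨ρ * z, hρp, rfl⟩)
    have hρmem : conjS Q ρ ∈ poAut F Q :=
      Subgroup.subset_closure ⟨_, (refl hQ hv).2, (induced_iff (isometry_le_similarity Q (refl hQ hv).2) _).2 rfl⟩
    refine ⟨(conjS Q ρ)⁻¹ * a, mul_mem (inv_mem hρmem) (inn_le_poAut hQ h2 hk h5 hG ha), ?_⟩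
    rw [map_mul] at e
    calc conjS Q z * conjS Q (isoSim Q w) * (conjS Q z)⁻¹
        = (conjS Q ρ)⁻¹ * (conjS Q ρ * conjS Q z * conjS Q (isoSim Q w) * (conjS Q ρ * conjS Q z)⁻¹) * conjS Q ρ := by
          group
      _ = _ := by rw [e]; group

end CfsgLib.AutOrthFusion
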